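/-
Abstract group-theoretic lemmas for the classification of insoluble transitive groups of
degree eleven: Sylow subgroups of prime order, Burnside's transfer theorem in that setting, and the
normaliser of a self-centralising subgroup of order five.
-/
import Mathlib

set_option autoImplicit false

namespace Cfsg.Agent.Lib.Deg11.Abstract

open Subgroup
open scoped Pointwise

variable {G : Type*} [Group G] [Finite G]

/-- A cyclic subgroup of prime order `p` is a Sylow `p`-subgroup when `p ^ 2` does not divide the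
order of the group. -/
theorem exists_sylow_eq {p : ℕ} [hp : Fact p.Prime] (x : G) (hx : orderOf x = p)
    (h : ¬ p ^ 2 ∣ Nat.card G) : ∃ Q : Sylow p G, (Q : Subgroup G) = zpowers x := by
  have hcx : Nat.card (zpowers x) = p := by rw [Nat.card_zpowers, hx]
  have hP : IsPGroup p (zpowers x) := IsPGroup.of_card (n := 1) (by rw [hcx, pow_one])
  obtain ⟨Q, hQ⟩ := hP.exists_le_sylow
  refine ⟨Q, ?_⟩
  obtain ⟨k, hk⟩ := Q.2.exists_card_eq
  have hdvd : Nat.card (Q : Subgroup G) ∣ Nat.card G := Subgroup.card_subgroup_dvd_card _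
  have hpd : p ∣ Nat.card (Q : Subgroup G) := by
    have := Subgroup.card_dvd_of_le hQ
    rwa [hcx] at this
  have hk1 : k ≤ 1 := by
    by_contra hk2
    push Not at hk2
    apply h
    refine dvd_trans ?_ hdvd
    change p ^ 2 ∣ Nat.card (Q : Subgroup G)
    have hk' : Nat.card (Q : Subgroup G) = p ^ k := hk
    rw [hk']
    exact pow_dvd_pow p hk2
  have hcq : Nat.card (Q : Subgroup G) ≤ p := by
    have hk' : Nat.card (Q : Subgroup G) = p ^ k := hk
    rw [hk']
    calc p ^ k ≤ p ^ 1 := Nat.pow_le_pow_right hp.out.pos hk1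
      _ = p := pow_one p
  exact (Subgroup.eq_of_le_of_card_ge hQ (by rw [hcx]; exact hcq)).symm

/-- Two elements of prime order `p`, when `p ^ 2` does not divide the order of the group:
the first is conjugate to a power of the second. -/
theorem exists_conj_pow {p : ℕ} [hp : Fact p.Prime] (x y : G) (hx : orderOf x = p)
    (hy : orderOf y = p) (h : ¬ p ^ 2 ∣ Nat.card G) : ∃ (g : G) (t : ℕ), g * x * g⁻¹ = y ^ t := by
  obtain ⟨Q₁, hQ₁⟩ := exists_sylow_eq x hx h
  obtain ⟨Q₂, hQ₂⟩ := exists_sylow_eq y hy h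
  obtain ⟨g, hg⟩ := MulAction.exists_smul_eq G Q₁ Q₂
  have hmem : x ∈ (Q₁ : Subgroup G) := by rw [hQ₁]; exact mem_zpowers x
  have h2 : g * x * g⁻¹ ∈ (Q₂ : Subgroup G) := by
    rw [← hg, Sylow.coe_subgroup_smul]
    exact (Subgroup.mem_pointwise_smul_iff_inv_smul_mem).mpr (by simpa [mul_assoc] using hmem)
  rw [hQ₂] at h2
  have h3 : g * x * g⁻¹ ∈ Submonoid.powers y := mem_powers_iff_mem_zpowers.mpr h2
  obtain ⟨t, ht⟩ := h3
  exact ⟨g, t, ht.symm⟩

/-- The index of the normaliser of a Sylow subgroup of prime order is congruent to one. -/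
theorem index_normalizer_modEq {p : ℕ} [hp : Fact p.Prime] (x : G) (hx : orderOf x = p)
    (h : ¬ p ^ 2 ∣ Nat.card G) :
    (normalizer (zpowers x : Set G)).index ≡ 1 [MOD p] := by
  obtain ⟨Q, hQ⟩ := exists_sylow_eq x hx h
  have h1 : Nat.card (Sylow p G) = (normalizer (((Q : Subgroup G)) : Set G)).index :=
    Q.card_eq_index_normalizer
  rw [hQ] at h1
  rw [← h1]
  exact card_sylow_modEq_one p G

/-- Burnside's transfer theorem for a Sylow subgroup of prime order. -/
theorem burnside_prime {p : ℕ} [hp : Fact p.Prime] (x : G) (hx : orderOf x = p)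
    (h : ¬ p ^ 2 ∣ Nat.card G) (hN : ∀ y : G, y * x * y⁻¹ ∈ zpowers x → y * x = x * y) :
    ∃ K : Subgroup G, K.Normal ∧ ¬ p ∣ Nat.card K ∧ Nat.card K * p = Nat.card G := by
  obtain ⟨Q, hQ⟩ := exists_sylow_eq x hx h
  have hP : normalizer (Q : Set G) ≤ centralizer (Q : Set G) := by
    intro y hy
    change y ∈ normalizer (((Q : Subgroup G)) : Set G) at hy
    change y ∈ centralizer (((Q : Subgroup G)) : Set G)
    rw [hQ] at hy ⊢
    have h1 : y * x * y⁻¹ ∈ zpowers x := (mem_normalizer_iff.mp hy x).mp (mem_zpowers x)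
    have h2 := hN y h1
    rw [mem_centralizer_iff]
    intro z hz
    obtain ⟨k, rfl⟩ := mem_zpowers_iff.mp hz
    exact ((Commute.zpow_left (show Commute x y from h2.symm) k)).eq
  refine ⟨(MonoidHom.transferSylow Q hP).ker, inferInstance,
    MonoidHom.not_dvd_card_ker_transferSylow Q hP, ?_⟩
  have := (MonoidHom.ker_transferSylow_isComplement' Q hP).card_mul_card
  have hc : Nat.card (Q : Subgroup G) = p := by rw [hQ, Nat.card_zpowers, hx]
  rwa [hc] at this

/-- An element conjugating a generator to powers in both directions normalises the cyclic group. -/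
theorem mem_normalizer_zpowers {c g : G} {a b : ℕ} (h1 : g * c * g⁻¹ = c ^ a)
    (h2 : g⁻¹ * c * g = c ^ b) : g ∈ normalizer (zpowers c : Set G) := by
  rw [mem_normalizer_iff]
  intro z
  constructor
  · intro hz
    obtain ⟨k, rfl⟩ := mem_zpowers_iff.mp hz
    rw [← conj_zpow, h1]
    exact zpow_mem (pow_mem (mem_zpowers c) a) k
  · intro hz
    obtain ⟨k, hk⟩ := mem_zpowers_iff.mp hz
    have : z = g⁻¹ * c ^ k * g := by rw [hk]; group
    rw [this]
    have h3 : g⁻¹ * c ^ k * g = (g⁻¹ * c * g) ^ k := by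
      have := conj_zpow (a := g⁻¹) (b := c) (i := k)
      simpa using this.symm
    rw [h3, h2]
    exact zpow_mem (pow_mem (mem_zpowers c) b) k

/-- A cyclic group is solvable. -/
theorem solvable_of_cyclic (H : Type*) [Group H] [IsCyclic H] : Group.IsSolvable H := by
  let _ := IsCyclic.commGroup (α := H)
  exact Group.isSolvable_of_comm (fun a b => mul_comm a b)

/-- A group with a normal cyclic subgroup and cyclic quotient is solvable. -/
theorem solvable_of_cyclic_ext (K : Subgroup G) [K.Normal] [IsCyclic K] [IsCyclic (G ⧸ K)] :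
    Group.IsSolvable G := by
  have h1 : Group.IsSolvable K := solvable_of_cyclic K
  have h2 : Group.IsSolvable (G ⧸ K) := solvable_of_cyclic (G ⧸ K)
  refine Group.isSolvable_of_ker_le_range K.subtype (QuotientGroup.mk' K) ?_
  rw [QuotientGroup.ker_mk', Subgroup.range_subtype]

/-- The conjugation data of a self-centralising subgroup of order five. -/
theorem five_normalizer (f : G) (hf : orderOf f = 5) (hC : ∀ x : G, x * f = f * x → x ∈ zpowers f)
    (h25 : ¬ 25 ∣ Nat.card G) :
    ∃ d I : ℕ, (d = 1 ∨ d = 2 ∨ d = 4) ∧ Nat.card G = 5 * d * I ∧ I ≡ 1 [MOD 5] ∧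
      (d ≠ 1 → ∃ s : G, s * f * s⁻¹ = f ^ 4) ∧ (d = 4 → ∃ h : G, h * f * h⁻¹ = f ^ 2) := by
  classical
  have : Fact (Nat.Prime 5) := ⟨by norm_num⟩
  set F : Subgroup G := zpowers f with hF
  have hcF : Nat.card F = 5 := by rw [hF, Nat.card_zpowers, hf]
  have hcentr : centralizer (F : Set G) = F := by
    apply le_antisymm
    · intro x hx
      rw [mem_centralizer_iff] at hx
      exact hC x (hx f (mem_zpowers f)).symm
    · intro x hx
      rw [mem_centralizer_iff]
      intro z hz
      obtain ⟨k, rfl⟩ := mem_zpowers_iff.mp hz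
      obtain ⟨l, rfl⟩ := mem_zpowers_iff.mp hx
      exact (zpow_mul_comm f k l)
  have hI := index_normalizer_modEq f hf (by norm_num; exact h25)
  have hle : F ≤ normalizer (F : Set G) := le_normalizer
  have key := card_dvd_of_injective _ (QuotientGroup.kerLift_injective F.normalizerMonoidHom)
  rw [normalizerMonoidHom_ker, ← index, ← relIndex, hcentr, IsCyclic.card_mulAut, hcF] at key
  have htot : Nat.totient 5 = 4 := by decide
  rw [htot] at key
  have hd : F.relIndex (normalizer (F : Set G)) = 1 ∨ F.relIndex (normalizer (F : Set G)) = 2 ∨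
      F.relIndex (normalizer (F : Set G)) = 4 := by
    have h4 : F.relIndex (normalizer (F : Set G)) ∈ Nat.divisors 4 := Nat.mem_divisors.mpr ⟨key, by norm_num⟩
    have h5 : Nat.divisors 4 = {1, 2, 4} := by decide
    rw [h5] at h4
    simpa using h4
  -- conjugation data
  have hK : ∀ x ∈ normalizer (F : Set G), ∃ k : ℕ, (k = 1 ∨ k = 2 ∨ k = 3 ∨ k = 4) ∧ x * f * x⁻¹ = f ^ k := by
    intro x hx
    have h1 : x * f * x⁻¹ ∈ zpowers f := (mem_normalizer_iff.mp hx f).mp (mem_zpowers f)
    have h2 : x * f * x⁻¹ ∈ Submonoid.powers f := mem_powers_iff_mem_zpowers.mpr h1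
    obtain ⟨t, ht⟩ := h2
    have ht' : f ^ (t % 5) = x * f * x⁻¹ := by
      rw [← ht, ← hf, pow_mod_orderOf]
    have hne : t % 5 ≠ 0 := by
      intro h0
      rw [h0, pow_zero] at ht'
      have : f = 1 := by
        have h3 : x * f * x⁻¹ = x * 1 * x⁻¹ := by rw [← ht']; simp
        simpa using h3
      rw [this, orderOf_one] at hf
      omega
    refine ⟨t % 5, ?_, ht'.symm⟩
    omega
  have hmemN : ∀ x k, x * f * x⁻¹ = f ^ k → x ∈ normalizer (F : Set G) → True := fun _ _ _ _ => trivial
  have hpow : ∀ a b : ℕ, a % 5 = b % 5 → f ^ a = f ^ b := by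
    intro a b hab
    rw [pow_eq_pow_iff_modEq, hf]
    exact hab
  have hcomp : ∀ x y a b, x * f * x⁻¹ = f ^ a → y * f * y⁻¹ = f ^ b → (x * y) * f * (x * y)⁻¹ = f ^ (a * b) := by
    intro x y a b hx hy
    have : (x * y) * f * (x * y)⁻¹ = x * (y * f * y⁻¹) * x⁻¹ := by group
    rw [this, hy, ← conj_pow, hx, ← pow_mul]
  have hmul4 : ∀ x ∈ normalizer (F : Set G), x ∉ F → ∃ s ∈ normalizer (F : Set G), s * f * s⁻¹ = f ^ 4 := by
    intro x hx hxF
    obtain ⟨k, hk, hxk⟩ := hK x hx
    have hsq : (x * x) * f * (x * x)⁻¹ = f ^ (k * k) := hcomp x x k k hxk hxk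
    rcases hk with rfl | rfl | rfl | rfl
    · exfalso
      apply hxF
      apply hC
      rw [pow_one] at hxk
      exact mul_inv_eq_iff_eq_mul.mp hxk
    · exact ⟨x * x, mul_mem hx hx, by simpa using hsq⟩
    · refine ⟨x * x, mul_mem hx hx, ?_⟩
      rw [hsq]
      exact hpow _ _ (by norm_num)
    · exact ⟨x, hx, hxk⟩
  refine ⟨F.relIndex (normalizer (F : Set G)), (normalizer (F : Set G)).index, hd, ?_, hI, ?_, ?_⟩
  · have h1 := relIndex_mul_index hle
    have h2 := card_mul_index F
    rw [hcF] at h2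
    rw [← h2, ← h1, mul_assoc]
  · intro hd1
    have : ¬ normalizer (F : Set G) ≤ F := fun hc => hd1 (relIndex_eq_one.mpr hc)
    obtain ⟨x, hx, hxF⟩ := SetLike.not_le_iff_exists.mp this
    obtain ⟨s, _, hs⟩ := hmul4 x hx hxF
    exact ⟨s, hs⟩
  · intro hd4
    by_contra hno
    push Not at hno
    -- no element with exponent 2 or 3
    have hno3 : ∀ x, x * f * x⁻¹ ≠ f ^ 3 := by
      intro x hx
      apply hno (x * (x * x))
      rw [hcomp x (x * x) 3 (3 * 3) hx (hcomp x x 3 3 hx hx)]
      exact hpow _ _ (by norm_num)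
    have hnd : ¬ normalizer (F : Set G) ≤ F := by
      intro hc
      have := relIndex_eq_one.mpr hc
      omega
    obtain ⟨x₀, hx₀, hx₀F⟩ := SetLike.not_le_iff_exists.mp hnd
    obtain ⟨s, hsN, hs⟩ := hmul4 x₀ hx₀ hx₀F
    have h14 : ∀ b ∈ normalizer (F : Set G), b * f * b⁻¹ = f ∨ b * f * b⁻¹ = f ^ 4 := by
      intro b hb
      obtain ⟨k, hk, hbk⟩ := hK b hb
      rcases hk with rfl | rfl | rfl | rfl
      · left; simpa using hbk
      · exact absurd hbk (hno b)
      · exact absurd hbk (hno3 b)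
      · right; exact hbk
    have hf4ne : f ^ 4 ≠ f := by
      intro he
      have : f ^ 4 = f ^ 1 := by simpa using he
      rw [pow_eq_pow_iff_modEq, hf] at this
      exact absurd this (by decide)
    have hidx : (F.subgroupOf (normalizer (F : Set G))).index = 2 := by
      rw [Subgroup.index_eq_two_iff]
      refine ⟨⟨s, hsN⟩, ?_⟩
      rintro ⟨b, hb⟩
      rw [Subgroup.mem_subgroupOf, Subgroup.mem_subgroupOf]
      change Xor (b * s ∈ F) (b ∈ F)
      have hbc : b ∈ F → b * f * b⁻¹ = f := by
        intro hbF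
        obtain ⟨l, rfl⟩ := mem_zpowers_iff.mp hbF
        have : Commute (f ^ l) f := (Commute.refl f).zpow_left l
        rw [this.eq]; group
      have hbsc : b * s ∈ F → (b * s) * f * (b * s)⁻¹ = f := by
        intro hbF
        obtain ⟨l, hl⟩ := mem_zpowers_iff.mp hbF
        rw [← hl]
        have : Commute (f ^ l) f := (Commute.refl f).zpow_left l
        rw [this.eq]; group
      by_cases hbF : b ∈ F
      · right
        refine ⟨hbF, ?_⟩
        intro hbs
        have h1 := hbsc hbs
        rw [hcomp b s 1 4 (by rw [hbc hbF, pow_one]) hs] at h1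
        rw [one_mul] at h1
        exact hf4ne h1
      · left
        refine ⟨?_, hbF⟩
        rcases h14 b hb with h1 | h1
        · exact absurd (hC b (mul_inv_eq_iff_eq_mul.mp h1)) hbF
        · apply hC
          have h2 := hcomp b s 4 4 h1 hs
          have h3 : f ^ (4 * 4) = f := by
            have := hpow (4 * 4) 1 (by norm_num)
            simpa using this
          rw [h3] at h2
          exact mul_inv_eq_iff_eq_mul.mp h2
    have hri : F.relIndex (normalizer (F : Set G)) = 2 := hidx
    omega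

end Cfsg.Agent.Lib.Deg11.Abstract
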