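/-
Explicit permutations of `ZMod 11` used in the classification of insoluble transitive groups of
degree eleven, with the finite checks about them.
-/
import Mathlib

set_option autoImplicit false

namespace Cfsg.Agent.Lib.Deg11.Perms

open Equiv Equiv.Perm

/-- The eleven points. -/
abbrev Om : Type := ZMod 11

/-- The translation `x ↦ x + 1`. -/
def cc : Perm Om where
  toFun x := x + 1
  invFun x := x - 1
  left_inv := by intro x; revert x; decide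
  right_inv := by intro x; revert x; decide

/-- The multiplication `x ↦ 3 x`. -/
def ff : Perm Om where
  toFun x := 3 * x
  invFun x := 4 * x
  left_inv := by intro x; revert x; decide
  right_inv := by intro x; revert x; decide

/-- The multiplication `x ↦ -x`. -/
def tt : Perm Om where
  toFun x := -x
  invFun x := -x
  left_inv := by intro x; revert x; decide
  right_inv := by intro x; revert x; decide

/-- A map determined by the images of `1` and `2`, with the relation `σ (3 x) = r σ x`. -/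
def tab (r u v : Om) (x : Om) : Om :=
  (![0, u, v, r * u, r ^ 4 * u, r ^ 3 * u, r * v, r ^ 2 * v, r ^ 4 * v, r ^ 2 * u, r ^ 3 * v] :
    Fin 11 → Om) x

/-- `ff` on the squares, the identity elsewhere. -/
def f1 : Perm Om where
  toFun := tab 3 3 2
  invFun := tab 3 4 2
  left_inv := by intro x; revert x; decide
  right_inv := by intro x; revert x; decide

/-- `ff` on the non-squares, the identity elsewhere. -/
def f2 : Perm Om where
  toFun := tab 3 1 6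
  invFun := tab 3 1 8
  left_inv := by intro x; revert x; decide
  right_inv := by intro x; revert x; decide

theorem gg_aux : ∀ (d : Fin 5) (x : Om),
    tab 4 1 (2 * 3 ^ d.val) (tab 4 1 (2 * 3 ^ d.val) x) = x := by decide +kernel

/-- Involutions `g` with `g ff g⁻¹ = ff ^ 4`. -/
def gg (d : Fin 5) : Perm Om where
  toFun := tab 4 1 (2 * 3 ^ d.val)
  invFun := tab 4 1 (2 * 3 ^ d.val)
  left_inv := gg_aux d
  right_inv := gg_aux d

theorem hh_aux1 : ∀ (d : Fin 5) (x : Om),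
    tab 5 1 (2 * 3 ^ (2 * d.val)) (tab 9 1 (2 * 3 ^ d.val) x) = x := by decide +kernel

theorem hh_aux2 : ∀ (d : Fin 5) (x : Om),
    tab 9 1 (2 * 3 ^ d.val) (tab 5 1 (2 * 3 ^ (2 * d.val)) x) = x := by decide +kernel

/-- Elements `h` with `h ff h⁻¹ = ff ^ 2`. -/
def hh (d : Fin 5) : Perm Om where
  toFun := tab 9 1 (2 * 3 ^ d.val)
  invFun := tab 5 1 (2 * 3 ^ (2 * d.val))
  left_inv := hh_aux1 d
  right_inv := hh_aux2 d

@[simp] theorem cc_apply (x : Om) : cc x = x + 1 := rfl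
@[simp] theorem ff_apply (x : Om) : ff x = 3 * x := rfl

theorem cc_pow_apply (k : ℕ) (z : Om) : (cc ^ k) z = z + (k : Om) := by
  induction k with
  | zero => simp
  | succ k ih =>
    rw [pow_succ', Perm.mul_apply, ih, cc_apply]
    push_cast
    ring

theorem ff_pow_apply (k : ℕ) (z : Om) : (ff ^ k) z = 3 ^ k * z := by
  induction k with
  | zero => simp
  | succ k ih =>
    rw [pow_succ', Perm.mul_apply, ih, ff_apply]
    ring

theorem cc_pow_eleven : cc ^ 11 = 1 := by decide +kernel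
theorem cc_ne_one : cc ≠ 1 := by decide +kernel
theorem ff_pow_five : ff ^ 5 = 1 := by decide +kernel
theorem ff_ne_one : ff ≠ 1 := by decide +kernel

theorem sign_cc : sign cc = 1 := by decide +kernel
theorem sign_ff : sign ff = 1 := by decide +kernel
theorem sign_tt : sign tt = -1 := by decide +kernel
theorem sign_f1 : sign f1 = 1 := by decide +kernel
theorem sign_f2 : sign f2 = 1 := by decide +kernel

theorem tt_comm_ff : tt * ff = ff * tt := by decide +kernel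
theorem f1_comm_ff : f1 * ff = ff * f1 := by decide +kernel
theorem f2_comm_ff : f2 * ff = ff * f2 := by decide +kernel

theorem gg_conj : ∀ d : Fin 5, gg d * ff = ff ^ 4 * gg d := by decide +kernel
theorem hh_conj : ∀ d : Fin 5, hh d * ff = ff ^ 2 * hh d := by decide +kernel

theorem hh_sq : ∀ d : Fin 5, hh d * hh d = gg (3 * d) := by decide +kernel

theorem points_form : ∀ x : Om, x = 0 ∨ ∃ k : Fin 5, x = (ff ^ k.val) 1 ∨ x = (ff ^ k.val) 2 := by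
  decide +kernel

theorem ff_fix : ∀ z : Om, 3 * z = z → z = 0 := by decide +kernel

theorem ff_orbit_ne : ∀ k : Fin 5, (ff ^ k.val) 1 ≠ 2 := by decide +kernel

theorem comm_table : ∀ u v : Om, u ≠ 0 → v ≠ 0 → (∀ i : Fin 5, (ff ^ i.val) u ≠ v) →
    ∃ i j : Fin 5,
      ((f1 ^ i.val * f2 ^ j.val) 1 = u ∧ (f1 ^ i.val * f2 ^ j.val) 2 = v) ∨
      ((tt * (f1 ^ i.val * f2 ^ j.val)) 1 = u ∧ (tt * (f1 ^ i.val * f2 ^ j.val)) 2 = v) := by
  decide +kernel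

theorem f12_five : ∀ i j : Fin 5, i ≠ j →
    (f1 ^ i.val * f2 ^ j.val * ff ^ (5 - j.val)) ^ 5 = 1 ∧
    f1 ^ i.val * f2 ^ j.val * ff ^ (5 - j.val) ≠ 1 ∧
    (f1 ^ i.val * f2 ^ j.val * ff ^ (5 - j.val)).support.card = 5 := by
  decide +kernel

theorem f12_eq : ∀ i : Fin 5, f1 ^ i.val * f2 ^ i.val = ff ^ i.val := by decide +kernel

theorem gg_normal : ∀ i j : Fin 5, ∃ m d : Fin 5,
    gg 0 * (f1 ^ i.val * f2 ^ j.val) = ff ^ m.val * gg d := by decide +kernel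

theorem hh_normal : ∀ i j : Fin 5, ∃ m d : Fin 5,
    hh 0 * (f1 ^ i.val * f2 ^ j.val) = ff ^ m.val * hh d := by decide +kernel

theorem tt_gg : ∀ d j : Fin 5, tt * gg d * tt = gg d * ff ^ j.val → d = 1 := by decide +kernel

theorem bad0 : ((ff * gg 0 * cc * gg 0 * cc * cc) ^ 7) ^ 3 = 1 ∧ (ff * gg 0 * cc * gg 0 * cc * cc) ^ 7 ≠ 1 ∧
    ((ff * gg 0 * cc * gg 0 * cc * cc) ^ 7).support.card = 3 := by decide +kernel

theorem bad1 : ((gg 1 * cc * cc * cc) ^ 4) ^ 3 = 1 ∧ (gg 1 * cc * cc * cc) ^ 4 ≠ 1 ∧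
    ((gg 1 * cc * cc * cc) ^ 4).support.card = 3 := by decide +kernel

theorem bad2 : ((gg 2 * cc * gg 2 * cc * cc * ff) ^ 4) ^ 3 = 1 ∧ (gg 2 * cc * gg 2 * cc * cc * ff) ^ 4 ≠ 1 ∧
    ((gg 2 * cc * gg 2 * cc * cc * ff) ^ 4).support.card = 3 := by decide +kernel

theorem sign_gg : ∀ d : Fin 5, sign (gg d) = 1 := by decide +kernel
theorem sign_hh : ∀ d : Fin 5, sign (hh d) = 1 := by decide +kernel

theorem ff_root : ∀ i : Fin 5, i ≠ 0 → ∃ e : Fin 5, (ff ^ i.val) ^ e.val = ff := by decide +kernel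

theorem ff_cc : ff * cc * ff⁻¹ = cc ^ 3 := by decide +kernel
theorem ff_cc_inv : ff⁻¹ * cc * ff = cc ^ 4 := by decide +kernel
theorem cc_cc_inv : cc⁻¹ * cc * cc = cc ^ 1 := by decide +kernel

theorem tt_gg_comm : ∀ d : Fin 5,
    (gg d)⁻¹ * tt * gg d * tt * ff = ff * ((gg d)⁻¹ * tt * gg d * tt) := by decide +kernel

/-- Affine maps in normal form. -/
theorem aff_table : ∀ a b : Om, a ≠ 0 → ∃ (i : Fin 5) (s : Fin 2), ∀ y : Om,
    (cc ^ b.val * ff ^ i.val * tt ^ s.val) y = a * y + b := by decide +kernel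

/-- The generators used for the explicit transitivity check. -/
def gen (b : Fin 5) : Fin 6 → Perm Om :=
  ![cc, cc⁻¹, ff, ff⁻¹, hh b, (hh b)⁻¹]

/-- Evaluate a word. -/
def ev (b : Fin 5) (w : List (Fin 6)) : Perm Om := (w.map (gen b)).prod

/-- Words of level 0 for `hh 1`. -/
def wd1_0 : List (List (Fin 6)) :=
  [[], [1], [1, 1], [1, 3], [1, 2], [0, 4, 0], [0, 4], [0, 2], [0, 3], [0, 0], [0]]

/-- Words of level 1 for `hh 1`. -/
def wd1_1 : List (List (Fin 6)) :=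
  [[], [2, 1, 5, 0], [3], [2], [2, 2], [1, 4, 0], [1, 4, 0, 3], [3, 1, 4, 0], [3, 3], [1, 4, 0, 5]]

/-- Words of level 2 for `hh 1`. -/
def wd1_2 : List (List (Fin 6)) :=
  [[], [3, 1, 5, 0, 3], [0, 5, 3, 1], [0, 5, 3, 1, 5], [5], [4], [4, 0, 2, 4, 1], [4, 0, 5, 3, 1], [4, 4]]

/-- Words of level 3 for `hh 1`. -/
def wd1_3 : List (List (Fin 6)) :=
  [[], [3, 4, 0, 4, 2, 0, 0], [1, 5, 0, 4, 3], [2, 5, 1, 4, 0], [4, 4, 1, 3, 5, 1, 1], [5, 0, 4, 3, 4, 1], [0, 0, 5, 1, 4, 3, 0], [0, 4, 3, 4, 1, 4]]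

/-- Words of level 0 for `hh 3`. -/
def wd3_0 : List (List (Fin 6)) :=
  [[], [1], [1, 1], [1, 3], [1, 2], [1, 2, 1], [0, 2, 0], [0, 2], [0, 3], [0, 0], [0]]

/-- Words of level 1 for `hh 3`. -/
def wd3_1 : List (List (Fin 6)) :=
  [[], [2, 1, 5, 0], [3], [2], [2, 2], [1, 4, 4, 0, 2], [1, 4, 4, 0], [3, 1, 4, 0], [3, 3], [1, 1, 5, 1]]

/-- Words of level 2 for `hh 3`. -/
def wd3_2 : List (List (Fin 6)) :=
  [[], [3, 4, 1, 5, 0], [3, 5, 1, 4, 0], [0, 5, 2, 1], [4], [1, 5, 0, 2, 2], [4, 4], [3, 3, 1, 4, 0], [5]]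

/-- Words of level 3 for `hh 3`. -/
def wd3_3 : List (List (Fin 6)) :=
  [[], [0, 3, 4, 1, 5], [5, 1, 5, 1, 5, 1], [0, 0, 5, 3, 0, 4], [0, 4, 2, 4, 1, 4], [5, 0, 4, 2, 4, 1], [5, 1, 2, 4, 1, 1], [4, 0, 5, 2, 1]]

theorem lv0_1 : ∀ a : Om, ∃ w ∈ wd1_0, ev 1 w a = 0 := by decide +kernel
theorem lv1_1 : ∀ a : Om, a ≠ 0 → ∃ w ∈ wd1_1, ev 1 w 0 = 0 ∧ ev 1 w a = 1 := by decide +kernel
theorem lv2_1 : ∀ a : Om, a ≠ 0 → a ≠ 1 → ∃ w ∈ wd1_2, ev 1 w 0 = 0 ∧ ev 1 w 1 = 1 ∧ ev 1 w a = 2 := by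
  decide +kernel
theorem lv3_1 : ∀ a : Om, a ≠ 0 → a ≠ 1 → a ≠ 2 → ∃ w ∈ wd1_3,
    ev 1 w 0 = 0 ∧ ev 1 w 1 = 1 ∧ ev 1 w 2 = 2 ∧ ev 1 w a = 3 := by decide +kernel

theorem lv0_3 : ∀ a : Om, ∃ w ∈ wd3_0, ev 3 w a = 0 := by decide +kernel
theorem lv1_3 : ∀ a : Om, a ≠ 0 → ∃ w ∈ wd3_1, ev 3 w 0 = 0 ∧ ev 3 w a = 1 := by decide +kernel
theorem lv2_3 : ∀ a : Om, a ≠ 0 → a ≠ 1 → ∃ w ∈ wd3_2, ev 3 w 0 = 0 ∧ ev 3 w 1 = 1 ∧ ev 3 w a = 2 := by
  decide +kernel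
theorem lv3_3 : ∀ a : Om, a ≠ 0 → a ≠ 1 → a ≠ 2 → ∃ w ∈ wd3_3,
    ev 3 w 0 = 0 ∧ ev 3 w 1 = 1 ∧ ev 3 w 2 = 2 ∧ ev 3 w a = 3 := by decide +kernel

end Cfsg.Agent.Lib.Deg11.Perms
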