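/-
Transitive groups of degree eleven: the even part `L` of an insoluble transitive group containing
the translation `cc`, not containing the alternating group.
-/
import Cfsg.Agent.Lib.Deg11.Perms
import Cfsg.Agent.Lib.Deg11.Abstract
import Cfsg.Agent.Lib.Perm.JordanPrime
import Cfsg.Agent.Lib.Perm.Normal
import Cfsg.Agent.Lib.Small.PSL2P11

set_option autoImplicit false
set_option linter.style.haveILetI false

namespace Cfsg.Agent.Lib.Deg11.Core

open Equiv Equiv.Perm Subgroup MulAction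
open Cfsg.Agent.Lib.Deg11.Perms Cfsg.Agent.Lib.Deg11.Abstract

/-- The standing hypotheses on the even part. -/
structure Hyp (L : Subgroup (Perm Om)) : Prop where
  hcc : cc ∈ L
  hev : L ≤ alternatingGroup Om
  hA : ¬ alternatingGroup Om ≤ L
  hS : ¬ Group.IsSolvable L

theorem card_Om : Fintype.card Om = 11 := ZMod.card 11

instance fact_prime_five : Fact (Nat.Prime 5) := ⟨by norm_num⟩

theorem orderOf_cc : orderOf cc = 11 := orderOf_eq_prime cc_pow_eleven cc_ne_one
theorem orderOf_ff : orderOf ff = 5 := orderOf_eq_prime ff_pow_five ff_ne_one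

theorem pretrans {L : Subgroup (Perm Om)} (h : cc ∈ L) : IsPretransitive L Om := by
  refine ⟨fun x y => ⟨⟨cc ^ (y - x).val, pow_mem h _⟩, ?_⟩⟩
  change (cc ^ (y - x).val) x = y
  rw [cc_pow_apply, ZMod.natCast_zmod_val]
  ring

theorem prim {L : Subgroup (Perm Om)} (h : cc ∈ L) : IsPreprimitive L Om := by
  haveI := pretrans h
  exact IsPreprimitive.of_prime_card (by rw [Nat.card_eq_fintype_card, card_Om]; norm_num)

theorem sign_of_mem {L : Subgroup (Perm Om)} (h : Hyp L) {x : Perm Om} (hx : x ∈ L) : sign x = 1 :=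
  Equiv.Perm.mem_alternatingGroup.mp (h.hev hx)

theorem no_cycle {L : Subgroup (Perm Om)} (h : Hyp L) {p : ℕ} (hp : p.Prime) (hp3 : p + 3 ≤ 11)
    {x : Perm Om} (hx : x ∈ L) (hc : x.IsCycle) (hs : x.support.card = p) : False :=
  h.hA (Cfsg.Agent.Lib.Perm.JordanPrime.jordan_prime_cycle L (prim h.hcc) hp
    (by rw [card_Om]; exact hp3) hc hs hx)

theorem no_supp {L : Subgroup (Perm Om)} (h : Hyp L) {p : ℕ} (hp : p.Prime) (hp3 : p + 3 ≤ 11)
    {x : Perm Om} (hx : x ∈ L) (hxp : x ^ p = 1) (hx1 : x ≠ 1) (hs : x.support.card = p) : False := by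
  haveI := Fact.mk hp
  have ho : orderOf x = p := orderOf_eq_prime hxp hx1
  have hc : x.IsCycle := isCycle_of_prime_order (by rw [ho]; exact hp)
    (by rw [ho, hs]; have := hp.pos; omega)
  exact no_cycle h hp hp3 hx hc hs

theorem card_dvd {L : Subgroup (Perm Om)} (h : Hyp L) : Nat.card L ∣ 19958400 := by
  have h1 := Subgroup.card_dvd_of_le h.hev
  have h2 : 2 * Nat.card (alternatingGroup Om) = 39916800 := by
    rw [two_mul_nat_card_alternatingGroup, Nat.card_eq_fintype_card, Fintype.card_perm, card_Om]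
    decide
  have h3 : Nat.card (alternatingGroup Om) = 19958400 := by omega
  rwa [h3] at h1

theorem not7 {L : Subgroup (Perm Om)} (h : Hyp L) : ¬ 7 ∣ Nat.card L := by
  intro h7
  haveI : Fact (Nat.Prime 7) := ⟨by norm_num⟩
  obtain ⟨x, hx⟩ := exists_prime_orderOf_dvd_card' (G := L) 7 h7
  have ho : orderOf (x : Perm Om) = 7 := by rw [Subgroup.orderOf_coe]; exact hx
  have hc : (x : Perm Om).IsCycle :=
    isCycle_of_prime_order' (by rw [ho]; norm_num) (by rw [ho, card_Om]; norm_num)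
  have hs := hc.orderOf
  exact no_cycle h (p := 7) (by norm_num) (by norm_num) x.2 hc (by rw [← hs, ho])

theorem not121 {L : Subgroup (Perm Om)} (h : Hyp L) : ¬ 11 ^ 2 ∣ Nat.card L := by
  intro h1
  have := dvd_trans h1 (card_dvd h)
  revert this
  decide

/-- A permutation conjugating `cc` to a power of itself is affine. -/
theorem form_of_conj (x : Perm Om) (k : ℕ) (h : x * cc * x⁻¹ = cc ^ k) :
    ∃ (b : Om) (i : Fin 5) (s : Fin 2), x = cc ^ b.val * ff ^ i.val * tt ^ s.val := by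
  have h1 : ∀ y, x (y + 1) = x y + k := by
    intro y
    have h2 : x * cc = cc ^ k * x := mul_inv_eq_iff_eq_mul.mp h
    have h3 := congrArg (fun g : Perm Om => g y) h2
    simpa [Perm.mul_apply, cc_pow_apply] using h3
  have h2 : ∀ n : ℕ, x (n : Om) = k * n + x 0 := by
    intro n
    induction n with
    | zero => simp
    | succ n ih =>
      push_cast
      rw [h1, ih]
      ring
  have h3 : ∀ y : Om, x y = k * y + x 0 := by
    intro y
    have := h2 y.val
    rwa [ZMod.natCast_zmod_val] at this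
  have hk : (k : Om) ≠ 0 := by
    intro h0
    have e := h3 1
    rw [h0, zero_mul, zero_add] at e
    have := x.injective e
    revert this
    decide
  obtain ⟨i, s, hi⟩ := aff_table k (x 0) hk
  exact ⟨x 0, i, s, Equiv.ext fun y => by rw [hi, h3]⟩

theorem sign_form (b : ℕ) (i : ℕ) (s : ℕ) : sign (cc ^ b * ff ^ i * tt ^ s) = (-1) ^ s := by
  rw [map_mul, map_mul, map_pow, map_pow, map_pow, sign_cc, sign_ff, sign_tt]
  simp

theorem form_even (x : Perm Om) (k : ℕ) (h : x * cc * x⁻¹ = cc ^ k) (hs : sign x = 1) :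
    ∃ (b : Om) (i : Fin 5), x = cc ^ b.val * ff ^ i.val := by
  obtain ⟨b, i, s, hx⟩ := form_of_conj x k h
  refine ⟨b, i, ?_⟩
  have h1 := sign_form b.val i.val s.val
  rw [← hx, hs] at h1
  fin_cases s
  · simpa using hx
  · exfalso
    revert h1
    decide

theorem form_odd (x : Perm Om) (k : ℕ) (h : x * cc * x⁻¹ = cc ^ k) (hs : sign x = -1) :
    ∃ (b : Om) (i : Fin 5), x = cc ^ b.val * ff ^ i.val * tt := by
  obtain ⟨b, i, s, hx⟩ := form_of_conj x k h
  refine ⟨b, i, ?_⟩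
  have h1 := sign_form b.val i.val s.val
  rw [← hx, hs] at h1
  fin_cases s
  · exfalso
    revert h1
    decide
  · simpa using hx

/-- A normal subgroup acting transitively has order divisible by `11`. -/
theorem dvd_card_of_pretransitive {A : Type*} [Group A] [Finite A] [MulAction A Om]
    [IsPretransitive A Om] : 11 ∣ Nat.card A := by
  have h1 : (stabilizer A (0 : Om)).index = (orbit A (0 : Om)).ncard := index_stabilizer A 0
  rw [orbit_eq_univ, Set.ncard_univ, Nat.card_eq_fintype_card, card_Om] at h1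
  rw [← h1]
  exact index_dvd_card _

theorem ff_mem {L : Subgroup (Perm Om)} (h : Hyp L) : ff ∈ L := by
  by_contra hff
  let ccL : L := ⟨cc, h.hcc⟩
  have ho : orderOf ccL = 11 := by rw [Subgroup.orderOf_mk, orderOf_cc]
  have hN : ∀ y : L, y * ccL * y⁻¹ ∈ zpowers ccL → y * ccL = ccL * y := by
    intro y hy
    have hy2 : y * ccL * y⁻¹ ∈ Submonoid.powers ccL := mem_powers_iff_mem_zpowers.mpr hy
    obtain ⟨k, hk⟩ := hy2
    have hk' : (y : Perm Om) * cc * (y : Perm Om)⁻¹ = cc ^ k := by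
      have := congrArg Subtype.val hk
      simpa using this.symm
    obtain ⟨b, i, hbi⟩ := form_even y k hk' (sign_of_mem h y.2)
    by_cases hi : i = 0
    · subst hi
      apply Subtype.ext
      change (y : Perm Om) * cc = cc * y
      rw [hbi]
      simp only [Fin.val_zero, pow_zero, mul_one]
      exact (Commute.pow_left (Commute.refl cc) _).eq
    · exfalso
      apply hff
      obtain ⟨e, he⟩ := ff_root i hi
      have h1 : ff ^ i.val ∈ L := by
        have : ff ^ i.val = (cc ^ b.val)⁻¹ * y := by rw [hbi]; group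
        rw [this]
        exact mul_mem (inv_mem (pow_mem h.hcc _)) y.2
      rw [← he]
      exact pow_mem h1 _
  obtain ⟨K, hKn, hKp, hKc⟩ := burnside_prime ccL ho (not121 h) hN
  have hKb : K = ⊥ := by
    by_contra hne
    haveI := hKn
    haveI : IsPreprimitive L Om := prim h.hcc
    haveI : FaithfulSMul L Om := inferInstance
    have : IsPretransitive K Om :=
      Cfsg.Agent.Lib.Perm.Normal.isPretransitive_of_normal_of_ne_bot (prim h.hcc) K hne
    exact hKp dvd_card_of_pretransitive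
  rw [hKb, Subgroup.card_bot, one_mul] at hKc
  haveI : IsCyclic L := isCyclic_of_prime_card (p := 11) hKc.symm
  exact h.hS (solvable_of_cyclic L)

theorem comm_apply {σ : Perm Om} (hσ : σ * ff = ff * σ) (k : ℕ) (x : Om) :
    σ ((ff ^ k) x) = (ff ^ k) (σ x) := by
  have h1 : Commute σ (ff ^ k) := Commute.pow_right hσ k
  have h2 := congrArg (fun g : Perm Om => g x) h1.eq
  simpa [Perm.mul_apply] using h2

theorem comm_zero {σ : Perm Om} (hσ : σ * ff = ff * σ) : σ 0 = 0 := by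
  have h1 := comm_apply hσ 1 0
  rw [ff_pow_apply, ff_pow_apply, mul_zero] at h1
  apply ff_fix
  simpa using h1.symm

theorem determined {σ τ : Perm Om} (hσ : σ * ff = ff * σ) (hτ : τ * ff = ff * τ)
    (h1 : σ 1 = τ 1) (h2 : σ 2 = τ 2) : σ = τ := by
  apply Equiv.ext
  intro x
  rcases points_form x with rfl | ⟨k, rfl | rfl⟩
  · rw [comm_zero hσ, comm_zero hτ]
  · rw [comm_apply hσ, comm_apply hτ, h1]
  · rw [comm_apply hσ, comm_apply hτ, h2]

theorem comm_even {σ : Perm Om} (h : σ * ff = ff * σ) (hs : sign σ = 1) :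
    ∃ i j : Fin 5, σ = f1 ^ i.val * f2 ^ j.val := by
  have hu : σ 1 ≠ 0 := by
    intro h0
    have := σ.injective (h0.trans (comm_zero h).symm)
    revert this
    decide
  have hv : σ 2 ≠ 0 := by
    intro h0
    have := σ.injective (h0.trans (comm_zero h).symm)
    revert this
    decide
  have hne : ∀ i : Fin 5, (ff ^ i.val) (σ 1) ≠ σ 2 := by
    intro i he
    rw [← comm_apply h] at he
    exact ff_orbit_ne i (σ.injective he)
  obtain ⟨i, j, hij⟩ := comm_table (σ 1) (σ 2) hu hv hne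
  have c1 : Commute f1 ff := f1_comm_ff
  have c2 : Commute f2 ff := f2_comm_ff
  have c3 : Commute tt ff := tt_comm_ff
  have hc12 : Commute (f1 ^ i.val * f2 ^ j.val) ff := (c1.pow_left _).mul_left (c2.pow_left _)
  rcases hij with ⟨h1, h2⟩ | ⟨h1, h2⟩
  · exact ⟨i, j, determined h hc12.eq h1.symm h2.symm⟩
  · exfalso
    have e : σ = tt * (f1 ^ i.val * f2 ^ j.val) :=
      determined h (c3.mul_left hc12).eq h1.symm h2.symm
    rw [e, map_mul, map_mul, map_pow, map_pow, sign_tt, sign_f1, sign_f2] at hs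
    simp at hs

theorem comm_mem {L : Subgroup (Perm Om)} (h : Hyp L) {x : Perm Om} (hx : x ∈ L)
    (hc : x * ff = ff * x) : ∃ i : Fin 5, x = ff ^ i.val := by
  obtain ⟨i, j, hij⟩ := comm_even hc (sign_of_mem h hx)
  by_cases e : i = j
  · subst e
    exact ⟨i, by rw [hij, f12_eq]⟩
  · exfalso
    obtain ⟨h5, h1, hs⟩ := f12_five i j e
    exact no_supp h (p := 5) (by norm_num) (by norm_num)
      (mul_mem (hij ▸ hx) (pow_mem (ff_mem h) _)) h5 h1 hs

/-- The translation as an element of `L`. -/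
def ccL {L : Subgroup (Perm Om)} (h : Hyp L) : L := ⟨cc, h.hcc⟩

/-- The multiplication by three as an element of `L`. -/
def ffL {L : Subgroup (Perm Om)} (h : Hyp L) : L := ⟨ff, ff_mem h⟩

theorem orderOf_ccL {L : Subgroup (Perm Om)} (h : Hyp L) : orderOf (ccL h) = 11 := by
  rw [ccL, Subgroup.orderOf_mk, orderOf_cc]

theorem orderOf_ffL {L : Subgroup (Perm Om)} (h : Hyp L) : orderOf (ffL h) = 5 := by
  rw [ffL, Subgroup.orderOf_mk, orderOf_ff]

theorem comm_memL {L : Subgroup (Perm Om)} (h : Hyp L) (x : L) (hx : x * ffL h = ffL h * x) :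
    x ∈ zpowers (ffL h) := by
  have hc : (x : Perm Om) * ff = ff * x := congrArg Subtype.val hx
  obtain ⟨i, hi⟩ := comm_mem h x.2 hc
  have : x = ffL h ^ i.val := Subtype.ext (by simpa [ffL] using hi)
  rw [this]
  exact pow_mem (mem_zpowers _) _

theorem not25 {L : Subgroup (Perm Om)} (h : Hyp L) : ¬ 25 ∣ Nat.card L := by
  intro h25
  have hc : Nat.card (zpowers (ffL h)) = 5 ^ 1 := by
    rw [Nat.card_zpowers, orderOf_ffL, pow_one]
  obtain ⟨K, hK, hle⟩ := Sylow.exists_subgroup_card_pow_succ (p := 5) (n := 1)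
    (by norm_num; exact h25) hc
  have hcomm := IsPGroup.commutative_of_card_eq_prime_sq (p := 5) (G := K) hK
  have hle2 : K ≤ zpowers (ffL h) := by
    intro x hx
    have e := hcomm ⟨x, hx⟩ ⟨ffL h, hle (mem_zpowers _)⟩
    exact comm_memL h x (congrArg Subtype.val e)
  have h3 := Subgroup.card_dvd_of_le hle2
  rw [hK, hc] at h3
  revert h3
  decide

theorem normalizer_form {L : Subgroup (Perm Om)} (h : Hyp L) (y : L)
    (hy : y ∈ normalizer (zpowers (ccL h) : Set L)) :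
    ∃ (b : Om) (i : Fin 5), (y : Perm Om) = cc ^ b.val * ff ^ i.val := by
  have h1 : y * ccL h * y⁻¹ ∈ zpowers (ccL h) :=
    (mem_normalizer_iff.mp hy (ccL h)).mp (mem_zpowers _)
  have hy2 : y * ccL h * y⁻¹ ∈ Submonoid.powers (ccL h) := mem_powers_iff_mem_zpowers.mpr h1
  obtain ⟨k, hk⟩ := hy2
  have hk' : (y : Perm Om) * cc * (y : Perm Om)⁻¹ = cc ^ k := by
    have := congrArg Subtype.val hk
    simpa [ccL] using this.symm
  exact form_even y k hk' (sign_of_mem h y.2)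

theorem card_normalizer {L : Subgroup (Perm Om)} (h : Hyp L) :
    Nat.card (normalizer (zpowers (ccL h) : Set L)) = 55 := by
  classical
  set N : Subgroup L := normalizer (zpowers (ccL h) : Set L) with hN
  have hchoose : ∀ y : N, ∃ p : Om × Fin 5, ((y : L) : Perm Om) = cc ^ p.1.val * ff ^ p.2.val := by
    intro y
    obtain ⟨b, i, hbi⟩ := normalizer_form h y y.2
    exact ⟨(b, i), hbi⟩
  choose f hf using hchoose
  have hinj : Function.Injective f := by
    intro y z hyz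
    apply Subtype.ext
    apply Subtype.ext
    rw [hf y, hf z, hyz]
  have hle : Nat.card N ≤ 55 := by
    have := Nat.card_le_card_of_injective f hinj
    have hcp : Nat.card (Om × Fin 5) = 55 := by
      rw [Nat.card_prod, Nat.card_eq_fintype_card (α := Om), card_Om,
        Nat.card_eq_fintype_card (α := Fin 5), Fintype.card_fin]
    rwa [hcp] at this
  have h11 : 11 ∣ Nat.card N := by
    have h1 : zpowers (ccL h) ≤ N := le_normalizer
    have h2 := Subgroup.card_dvd_of_le h1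
    rwa [Nat.card_zpowers, orderOf_ccL] at h2
  have h5 : 5 ∣ Nat.card N := by
    have h1 : zpowers (ffL h) ≤ N := by
      rw [zpowers_le]
      apply mem_normalizer_zpowers (a := 3) (b := 4)
      · exact Subtype.ext (by simpa [ccL, ffL] using ff_cc)
      · exact Subtype.ext (by simpa [ccL, ffL] using ff_cc_inv)
    have h2 := Subgroup.card_dvd_of_le h1
    rwa [Nat.card_zpowers, orderOf_ffL] at h2
  have h55 : 55 ∣ Nat.card N :=
    Nat.Coprime.mul_dvd_of_dvd_of_dvd (by norm_num : Nat.Coprime 5 11) h5 h11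
  exact le_antisymm hle (Nat.le_of_dvd (Nat.pos_of_ne_zero Nat.card_pos.ne') h55)

theorem divisor_table : ∀ I ∈ Nat.divisors 10368, I % 11 = 1 →
    I = 1 ∨ I = 12 ∨ I = 144 ∨ I = 1728 := by decide +kernel

theorem card_values {L : Subgroup (Perm Om)} (h : Hyp L) :
    Nat.card L = 660 ∨ Nat.card L = 7920 ∨ Nat.card L = 95040 := by
  set N : Subgroup L := normalizer (zpowers (ccL h) : Set L) with hN
  have hc : Nat.card N * N.index = Nat.card L := card_mul_index N
  rw [card_normalizer h] at hc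
  have hI : N.index ≡ 1 [MOD 11] := index_normalizer_modEq (ccL h) (orderOf_ccL h) (not121 h)
  have hd : 55 * N.index ∣ 55 * 362880 := by rw [hc]; exact card_dvd h
  have hd1 : N.index ∣ 362880 := Nat.dvd_of_mul_dvd_mul_left (by norm_num) hd
  have h7 : ¬ 7 ∣ N.index := by
    intro h7
    apply not7 h
    rw [← hc]
    exact dvd_mul_of_dvd_right h7 _
  have h5 : ¬ 5 ∣ N.index := by
    intro h5
    apply not25 h
    rw [← hc]
    obtain ⟨c, hc'⟩ := h5
    rw [hc']
    exact ⟨11 * c, by ring⟩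
  have hcop : Nat.Coprime N.index 35 := by
    have h35 : (35 : ℕ) = 5 * 7 := by norm_num
    rw [h35]
    apply Nat.Coprime.mul_right
    · exact ((Nat.Prime.coprime_iff_not_dvd (by norm_num)).mpr h5).symm
    · exact ((Nat.Prime.coprime_iff_not_dvd (by norm_num)).mpr h7).symm
  have hd2 : N.index ∣ 10368 := by
    have h3 : N.index ∣ 10368 * 35 := by simpa using hd1
    exact hcop.dvd_of_dvd_mul_right h3
  have hmod : N.index % 11 = 1 := hI
  rcases divisor_table N.index (Nat.mem_divisors.mpr ⟨hd2, by norm_num⟩) hmod with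
    h1 | h1 | h1 | h1
  · exfalso
    have htop : N = ⊤ := Subgroup.index_eq_one.mp h1
    have hnormal : (zpowers (ccL h)).Normal := normalizer_eq_top_iff.mp htop
    have hk : Nat.card (zpowers (ccL h)) = 11 := by rw [Nat.card_zpowers, orderOf_ccL]
    have hi := card_mul_index (zpowers (ccL h))
    rw [h1] at hc
    rw [hk, ← hc] at hi
    have hi5 : (zpowers (ccL h)).index = 5 := by omega
    haveI : IsCyclic (L ⧸ zpowers (ccL h)) := isCyclic_of_prime_card (p := 5) hi5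
    exact h.hS (solvable_of_cyclic_ext (zpowers (ccL h)))
  · left; rw [← hc, h1]
  · right; left; rw [← hc, h1]
  · right; right; rw [← hc, h1]

theorem conj_data {L : Subgroup (Perm Om)} (h : Hyp L) :
    (Nat.card L = 660 ∨ Nat.card L = 7920) ∧ (∃ s ∈ L, s * ff * s⁻¹ = ff ^ 4) ∧
      (Nat.card L = 7920 → ∃ x ∈ L, x * ff * x⁻¹ = ff ^ 2) := by
  obtain ⟨d, I, hd, hc, hI, h4, h2⟩ :=
    five_normalizer (ffL h) (orderOf_ffL h) (comm_memL h) (not25 h)
  have hI' : I % 5 = 1 := hI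
  have hv := card_values h
  have h4' : d ≠ 1 → ∃ s ∈ L, s * ff * s⁻¹ = ff ^ 4 := by
    intro hd1
    obtain ⟨s, hs⟩ := h4 hd1
    refine ⟨s, s.2, ?_⟩
    have := congrArg Subtype.val hs
    simpa [ffL] using this
  have h2' : d = 4 → ∃ x ∈ L, x * ff * x⁻¹ = ff ^ 2 := by
    intro hd1
    obtain ⟨s, hs⟩ := h2 hd1
    refine ⟨s, s.2, ?_⟩
    have := congrArg Subtype.val hs
    simpa [ffL] using this
  rcases hd with rfl | rfl | rfl
  · exfalso
    omega
  · have hn : Nat.card L = 660 := by omega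
    refine ⟨Or.inl hn, h4' (by norm_num), ?_⟩
    intro hn2
    omega
  · have hn : Nat.card L = 7920 := by omega
    exact ⟨Or.inr hn, h4' (by norm_num), fun _ => h2' rfl⟩

theorem normal_aux (g₀ s : Perm Om) (k : ℕ) (h0 : g₀ * ff = ff ^ k * g₀) (hs : s * ff = ff ^ k * s) :
    (g₀⁻¹ * s) * ff = ff * (g₀⁻¹ * s) := by
  have h3 : g₀⁻¹ * ff ^ k = ff * g₀⁻¹ := by
    rw [inv_mul_eq_iff_eq_mul, ← mul_assoc, h0, mul_assoc, mul_inv_cancel, mul_one]
  calc g₀⁻¹ * s * ff = g₀⁻¹ * (s * ff) := mul_assoc _ _ _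
    _ = g₀⁻¹ * (ff ^ k * s) := by rw [hs]
    _ = (g₀⁻¹ * ff ^ k) * s := (mul_assoc _ _ _).symm
    _ = ff * g₀⁻¹ * s := by rw [h3]
    _ = ff * (g₀⁻¹ * s) := mul_assoc _ _ _

theorem gg_of_k4 {L : Subgroup (Perm Om)} (h : Hyp L) {s : Perm Om} (hs : s ∈ L)
    (hk : s * ff * s⁻¹ = ff ^ 4) : ∃ d : Fin 5, gg d ∈ L := by
  have h1 : s * ff = ff ^ 4 * s := mul_inv_eq_iff_eq_mul.mp hk
  have hρ := normal_aux (gg 0) s 4 (gg_conj 0) h1
  have hsgn : sign ((gg 0)⁻¹ * s) = 1 := by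
    rw [map_mul, sign_of_mem h hs, map_inv, sign_gg]
    simp
  obtain ⟨i, j, hij⟩ := comm_even hρ hsgn
  obtain ⟨m, d, hmd⟩ := gg_normal i j
  refine ⟨d, ?_⟩
  have e : gg d = (ff ^ m.val)⁻¹ * s := by
    rw [eq_inv_mul_iff_mul_eq, ← hmd, ← hij]
    simp
  rw [e]
  exact mul_mem (inv_mem (pow_mem (ff_mem h) _)) hs

theorem hh_of_k2 {L : Subgroup (Perm Om)} (h : Hyp L) {s : Perm Om} (hs : s ∈ L)
    (hk : s * ff * s⁻¹ = ff ^ 2) : ∃ d : Fin 5, hh d ∈ L := by
  have h1 : s * ff = ff ^ 2 * s := mul_inv_eq_iff_eq_mul.mp hk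
  have hρ := normal_aux (hh 0) s 2 (hh_conj 0) h1
  have hsgn : sign ((hh 0)⁻¹ * s) = 1 := by
    rw [map_mul, sign_of_mem h hs, map_inv, sign_hh]
    simp
  obtain ⟨i, j, hij⟩ := comm_even hρ hsgn
  obtain ⟨m, d, hmd⟩ := hh_normal i j
  refine ⟨d, ?_⟩
  have e : hh d = (ff ^ m.val)⁻¹ * s := by
    rw [eq_inv_mul_iff_mul_eq, ← hmd, ← hij]
    simp
  rw [e]
  exact mul_mem (inv_mem (pow_mem (ff_mem h) _)) hs

theorem gg_good {L : Subgroup (Perm Om)} (h : Hyp L) (d : Fin 5) (hd : gg d ∈ L) : d = 3 ∨ d = 4 := by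
  have hf := ff_mem h
  have hc := h.hcc
  have hcases : d = 0 ∨ d = 1 ∨ d = 2 ∨ d = 3 ∨ d = 4 := by
    have key : ∀ d : Fin 5, d = 0 ∨ d = 1 ∨ d = 2 ∨ d = 3 ∨ d = 4 := by decide
    exact key d
  rcases hcases with rfl | rfl | rfl | rfl | rfl
  · exfalso
    obtain ⟨a, b, c⟩ := bad0
    exact no_supp h (p := 3) (by norm_num) (by norm_num)
      (pow_mem (mul_mem (mul_mem (mul_mem (mul_mem (mul_mem hf hd) hc) hd) hc) hc) 7) a b c
  · exfalso
    obtain ⟨a, b, c⟩ := bad1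
    exact no_supp h (p := 3) (by norm_num) (by norm_num)
      (pow_mem (mul_mem (mul_mem (mul_mem hd hc) hc) hc) 4) a b c
  · exfalso
    obtain ⟨a, b, c⟩ := bad2
    exact no_supp h (p := 3) (by norm_num) (by norm_num)
      (pow_mem (mul_mem (mul_mem (mul_mem (mul_mem (mul_mem hd hc) hd) hc) hc) hf) 4) a b c
  · exact Or.inl rfl
  · exact Or.inr rfl

theorem hh_good {L : Subgroup (Perm Om)} (h : Hyp L) (b : Fin 5) (hb : hh b ∈ L) : b = 1 ∨ b = 3 := by
  have h1 := gg_good h (3 * b) (hh_sq b ▸ mul_mem hb hb)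
  have key : ∀ b : Fin 5, (3 * b = 3 ∨ 3 * b = 4) → (b = 1 ∨ b = 3) := by decide
  exact key b h1

/-- `L` is simple as soon as it contains an element inverting `ff` (up to the square). -/
theorem simple_L {L : Subgroup (Perm Om)} (h : Hyp L) {d : Fin 5} (hd : gg d ∈ L) :
    IsSimpleGroup L := by
  haveI : Nontrivial L := ⟨⟨ccL h, 1, fun he => cc_ne_one (congrArg Subtype.val he)⟩⟩
  refine ⟨fun N hN => ?_⟩
  by_cases hne : N = ⊥
  · exact Or.inl hne
  right
  haveI := hN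
  have htr : IsPretransitive N Om :=
    Cfsg.Agent.Lib.Perm.Normal.isPretransitive_of_normal_of_ne_bot (prim h.hcc) N hne
  have h11 : 11 ∣ Nat.card N := dvd_card_of_pretransitive
  obtain ⟨y, hy⟩ := exists_prime_orderOf_dvd_card' (G := N) 11 h11
  have hyo : orderOf (y : L) = 11 := by rw [Subgroup.orderOf_coe]; exact hy
  obtain ⟨g, t, hgt⟩ := exists_conj_pow (ccL h) (y : L) (orderOf_ccL h) hyo (not121 h)
  have hccN : ccL h ∈ N := by
    have h1 : g * ccL h * g⁻¹ ∈ N := by rw [hgt]; exact pow_mem y.2 t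
    have h2 := hN.conj_mem _ h1 g⁻¹
    simpa [mul_assoc] using h2
  have hNc : ¬ 11 ^ 2 ∣ Nat.card N := fun hd => not121 h (dvd_trans hd (card_subgroup_dvd_card N))
  have hfr : ∀ l : L, ∃ n ∈ N, ∃ (b : Om) (i : Fin 5),
      ((l⁻¹ * n : L) : Perm Om) = cc ^ b.val * ff ^ i.val := by
    intro l
    have hyN : l * ccL h * l⁻¹ ∈ N := hN.conj_mem _ hccN l
    have hX : orderOf (⟨ccL h, hccN⟩ : N) = 11 := by rw [Subgroup.orderOf_mk, orderOf_ccL]
    have hY : orderOf (⟨l * ccL h * l⁻¹, hyN⟩ : N) = 11 := by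
      rw [Subgroup.orderOf_mk, ← orderOf_ccL h, ← MulAut.conj_apply, MulEquiv.orderOf_eq]
    obtain ⟨n, t, hnt⟩ := exists_conj_pow _ _ hX hY hNc
    have hnt' : (n : L) * ccL h * (n : L)⁻¹ = (l * ccL h * l⁻¹) ^ t := by
      have := congrArg Subtype.val hnt
      simpa using this
    refine ⟨n, n.2, ?_⟩
    have h1 : (l⁻¹ * n) * ccL h * (l⁻¹ * n)⁻¹ = ccL h ^ t := by
      calc (l⁻¹ * n) * ccL h * (l⁻¹ * n)⁻¹ = l⁻¹ * ((n : L) * ccL h * (n : L)⁻¹) * l := by group
        _ = l⁻¹ * (l * ccL h * l⁻¹) ^ t * l := by rw [hnt']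
        _ = ccL h ^ t := by rw [conj_pow]; group
    have hp : ((l⁻¹ * n : L) : Perm Om) * cc * ((l⁻¹ * n : L) : Perm Om)⁻¹ = cc ^ t := by
      have := congrArg Subtype.val h1
      simpa [ccL] using this
    exact form_even _ t hp (sign_of_mem h (l⁻¹ * n : L).2)
  have hqc : (QuotientGroup.mk' N) (ccL h) = 1 := (QuotientGroup.eq_one_iff _).mpr hccN
  have hform : ∀ l : L, ∃ i : ℕ, (QuotientGroup.mk' N) l⁻¹ = (QuotientGroup.mk' N) (ffL h) ^ i := by
    intro l
    obtain ⟨n, hn, b, i, hbi⟩ := hfr l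
    have e : l⁻¹ * n = ccL h ^ b.val * ffL h ^ i.val := Subtype.ext (by simpa [ccL, ffL] using hbi)
    have e2 := congrArg (QuotientGroup.mk' N) e
    have hqn : (QuotientGroup.mk' N) n = 1 := (QuotientGroup.eq_one_iff _).mpr hn
    rw [map_mul, map_mul, map_pow, map_pow, hqc, one_pow, one_mul, hqn, mul_one] at e2
    exact ⟨i.val, e2⟩
  let s : L := ⟨gg d, hd⟩
  have hs : s * ffL h * s⁻¹ = ffL h ^ 4 := by
    apply Subtype.ext
    have h1 : gg d * ff * (gg d)⁻¹ = ff ^ 4 := mul_inv_eq_iff_eq_mul.mpr (gg_conj d)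
    simpa [s, ffL] using h1
  obtain ⟨i, hi⟩ := hform s
  have hffN : ffL h ∈ N := by
    rw [← QuotientGroup.eq_one_iff]
    change (QuotientGroup.mk' N) (ffL h) = 1
    set z := (QuotientGroup.mk' N) (ffL h) with hz
    have hz5 : z ^ 5 = 1 := by
      rw [hz, ← map_pow, ← orderOf_ffL h, pow_orderOf_eq_one, map_one]
    rw [map_inv] at hi
    have hcm : Commute ((QuotientGroup.mk' N) s)⁻¹ z := by
      rw [hi]
      exact (Commute.refl z).pow_left i
    have hcm2 : Commute ((QuotientGroup.mk' N) s) z := by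
      simpa using hcm.inv_left
    have e := congrArg (QuotientGroup.mk' N) hs
    rw [map_mul, map_mul, map_inv, map_pow, hcm2.eq, mul_assoc, mul_inv_cancel, mul_one] at e
    have h1 : z ^ 4 = z := e.symm
    have h2 : z * z = 1 := by
      have : z ^ 5 = z ^ 4 * z := pow_succ z 4
      rw [h1, hz5] at this
      exact this.symm
    have h3 : z ^ 4 = 1 := by
      rw [show z ^ 4 = (z ^ 2) ^ 2 by rw [← pow_mul], pow_two z, h2, one_pow]
    rw [← h1, h3]
  rw [eq_top_iff]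
  intro l _
  obtain ⟨n, hn, b, i, hbi⟩ := hfr l
  have e : l⁻¹ * n = ccL h ^ b.val * ffL h ^ i.val := Subtype.ext (by simpa [ccL, ffL] using hbi)
  have h1 : l⁻¹ * n ∈ N := by
    rw [e]
    exact mul_mem (pow_mem hccN _) (pow_mem hffN _)
  have h2 : l⁻¹ ∈ N := by
    have : l⁻¹ = (l⁻¹ * n) * n⁻¹ := by group
    rw [this]
    exact mul_mem h1 (inv_mem hn)
  simpa using inv_mem h2

theorem gen_mem {L : Subgroup (Perm Om)} (h : Hyp L) {b : Fin 5} (hb : hh b ∈ L) (i : Fin 6) :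
    gen b i ∈ L := by
  have hf := ff_mem h
  have hc := h.hcc
  fin_cases i
  · exact hc
  · exact inv_mem hc
  · exact hf
  · exact inv_mem hf
  · exact hb
  · exact inv_mem hb

theorem ev_mem {L : Subgroup (Perm Om)} {b : Fin 5} (hgen : ∀ i, gen b i ∈ L) (w : List (Fin 6)) :
    ev b w ∈ L := by
  apply list_prod_mem
  intro x hx
  obtain ⟨i, _, rfl⟩ := List.mem_map.mp hx
  exact hgen i

/-- Four-transitivity from explicit words. -/
theorem trans_of_words {L : Subgroup (Perm Om)} {b : Fin 5} (hgen : ∀ i, gen b i ∈ L)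
    (W0 W1 W2 W3 : List (List (Fin 6)))
    (l0 : ∀ a : Om, ∃ w ∈ W0, ev b w a = 0)
    (l1 : ∀ a : Om, a ≠ 0 → ∃ w ∈ W1, ev b w 0 = 0 ∧ ev b w a = 1)
    (l2 : ∀ a : Om, a ≠ 0 → a ≠ 1 → ∃ w ∈ W2, ev b w 0 = 0 ∧ ev b w 1 = 1 ∧ ev b w a = 2)
    (l3 : ∀ a : Om, a ≠ 0 → a ≠ 1 → a ≠ 2 → ∃ w ∈ W3,
      ev b w 0 = 0 ∧ ev b w 1 = 1 ∧ ev b w 2 = 2 ∧ ev b w a = 3)
    (x : Fin 4 ↪ Om) : ∃ g ∈ L, g (x 0) = 0 ∧ g (x 1) = 1 ∧ g (x 2) = 2 ∧ g (x 3) = 3 := by
  have hx : ∀ i j : Fin 4, i ≠ j → x i ≠ x j := fun i j hij he => hij (x.injective he)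
  obtain ⟨w0, -, h0⟩ := l0 (x 0)
  set g0 := ev b w0 with hg0
  have hinj0 : ∀ i j : Fin 4, i ≠ j → g0 (x i) ≠ g0 (x j) :=
    fun i j hij he => hx i j hij (g0.injective he)
  obtain ⟨w1, -, h10, h11⟩ := l1 (g0 (x 1)) (by rw [← h0]; exact hinj0 1 0 (by decide))
  set g1 := ev b w1 with hg1
  have hinj1 : ∀ i j : Fin 4, i ≠ j → g1 (g0 (x i)) ≠ g1 (g0 (x j)) :=
    fun i j hij he => hinj0 i j hij (g1.injective he)
  have h10' : g1 (g0 (x 0)) = 0 := by rw [h0, h10]
  obtain ⟨w2, -, h20, h21, h22⟩ := l2 (g1 (g0 (x 2)))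
    (by rw [← h10']; exact hinj1 2 0 (by decide)) (by rw [← h11]; exact hinj1 2 1 (by decide))
  set g2 := ev b w2 with hg2
  have hinj2 : ∀ i j : Fin 4, i ≠ j → g2 (g1 (g0 (x i))) ≠ g2 (g1 (g0 (x j))) :=
    fun i j hij he => hinj1 i j hij (g2.injective he)
  have h20' : g2 (g1 (g0 (x 0))) = 0 := by rw [h10', h20]
  have h21' : g2 (g1 (g0 (x 1))) = 1 := by rw [h11, h21]
  obtain ⟨w3, -, h30, h31, h32, h33⟩ := l3 (g2 (g1 (g0 (x 3))))
    (by rw [← h20']; exact hinj2 3 0 (by decide)) (by rw [← h21']; exact hinj2 3 1 (by decide))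
    (by rw [← h22]; exact hinj2 3 2 (by decide))
  refine ⟨ev b w3 * g2 * g1 * g0, ?_, ?_, ?_, ?_, ?_⟩
  · exact mul_mem (mul_mem (mul_mem (ev_mem hgen _) (ev_mem hgen _)) (ev_mem hgen _)) (ev_mem hgen _)
  · simp only [Perm.mul_apply]
    rw [h20', h30]
  · simp only [Perm.mul_apply]
    rw [h21', h31]
  · simp only [Perm.mul_apply]
    rw [h22, h32]
  · simp only [Perm.mul_apply]
    rw [h33]

theorem four_trans {L : Subgroup (Perm Om)} (h : Hyp L) {b : Fin 5} (hb : hh b ∈ L) (x : Fin 4 ↪ Om) :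
    ∃ g ∈ L, g (x 0) = 0 ∧ g (x 1) = 1 ∧ g (x 2) = 2 ∧ g (x 3) = 3 := by
  rcases hh_good h b hb with rfl | rfl
  · exact trans_of_words (gen_mem h hb) _ _ _ _ lv0_1 lv1_1 lv2_1 lv3_1 x
  · exact trans_of_words (gen_mem h hb) _ _ _ _ lv0_3 lv1_3 lv2_3 lv3_3 x

/-- The summary for the even part. -/
theorem main_L {L : Subgroup (Perm Om)} (h : Hyp L) :
    ∃ d : Fin 5, (d = 3 ∨ d = 4) ∧ gg d ∈ L ∧ (Nat.card L = 660 ∨ (Nat.card L = 7920 ∧
      ∀ x : Fin 4 ↪ Om, ∃ g ∈ L, g (x 0) = 0 ∧ g (x 1) = 1 ∧ g (x 2) = 2 ∧ g (x 3) = 3)) := by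
  obtain ⟨hn, ⟨s, hs, hsk⟩, h2⟩ := conj_data h
  obtain ⟨d, hd⟩ := gg_of_k4 h hs hsk
  refine ⟨d, gg_good h d hd, hd, ?_⟩
  rcases hn with hn | hn
  · exact Or.inl hn
  · refine Or.inr ⟨hn, ?_⟩
    obtain ⟨x, hx, hxk⟩ := h2 hn
    obtain ⟨b, hb⟩ := hh_of_k2 h hx hxk
    exact four_trans h hb

/-- An element of a group with even part satisfying the hypotheses: no odd elements exist. -/
theorem even_of_good (H : Subgroup (Perm Om)) (hL : Hyp (H ⊓ alternatingGroup Om)) {d : Fin 5}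
    (hd : d = 3 ∨ d = 4) (hg : gg d ∈ H ⊓ alternatingGroup Om) : H ≤ alternatingGroup Om := by
  intro y hy
  rw [Equiv.Perm.mem_alternatingGroup]
  by_contra hodd
  have hy1 : sign y = -1 := (Int.units_eq_one_or _).resolve_left hodd
  have hcH : cc ∈ H := (mem_inf.mp hL.hcc).1
  have hfH : ff ∈ H := (mem_inf.mp (ff_mem hL)).1
  have hzL : y * cc * y⁻¹ ∈ H ⊓ alternatingGroup Om := by
    refine mem_inf.mpr ⟨mul_mem (mul_mem hy hcH) (inv_mem hy), ?_⟩
    rw [Equiv.Perm.mem_alternatingGroup, map_mul, map_mul, map_inv, sign_cc]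
    simp
  have hZ : orderOf (⟨y * cc * y⁻¹, hzL⟩ : (H ⊓ alternatingGroup Om : Subgroup (Perm Om))) = 11 := by
    rw [Subgroup.orderOf_mk, ← orderOf_cc, ← MulAut.conj_apply, MulEquiv.orderOf_eq]
  obtain ⟨l, t, hlt⟩ := exists_conj_pow _ (ccL hL) hZ (orderOf_ccL hL) (not121 hL)
  have hlt' : (l : Perm Om) * (y * cc * y⁻¹) * (l : Perm Om)⁻¹ = cc ^ t := by
    have := congrArg Subtype.val hlt
    simpa [ccL] using this
  have hlH : (l : Perm Om) ∈ H := (mem_inf.mp l.2).1
  have hsl : sign (l : Perm Om) = 1 := sign_of_mem hL l.2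
  have ha : ((l : Perm Om) * y) * cc * ((l : Perm Om) * y)⁻¹ = cc ^ t := by
    rw [← hlt']
    group
  have hsa : sign ((l : Perm Om) * y) = -1 := by rw [map_mul, hsl, hy1, one_mul]
  obtain ⟨b, i, hbi⟩ := form_odd _ t ha hsa
  have htH : tt ∈ H := by
    have e : tt = (cc ^ b.val * ff ^ i.val)⁻¹ * ((l : Perm Om) * y) := by
      rw [hbi]
      group
    rw [e]
    exact mul_mem (inv_mem (mul_mem (pow_mem hcH _) (pow_mem hfH _))) (mul_mem hlH hy)
  have hgH : gg d ∈ H := (mem_inf.mp hg).1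
  have hρ : (gg d)⁻¹ * tt * gg d * tt ∈ H ⊓ alternatingGroup Om := by
    refine mem_inf.mpr ⟨mul_mem (mul_mem (mul_mem (inv_mem hgH) htH) hgH) htH, ?_⟩
    rw [Equiv.Perm.mem_alternatingGroup, map_mul, map_mul, map_mul, map_inv, sign_gg, sign_tt]
    decide
  obtain ⟨j, hj⟩ := comm_mem hL hρ (tt_gg_comm d)
  have e2 : tt * gg d * tt = gg d * ff ^ j.val := by
    rw [← hj]
    group
  have := tt_gg d j e2
  rcases hd with rfl | rfl
  · revert this; decide
  · revert this; decide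

theorem hyp_inf (H : Subgroup (Perm Om)) (hcc : cc ∈ H) (hS : ¬ Group.IsSolvable H)
    (hA : ¬ alternatingGroup Om ≤ H) : Hyp (H ⊓ alternatingGroup Om) := by
  refine ⟨mem_inf.mpr ⟨hcc, Equiv.Perm.mem_alternatingGroup.mpr sign_cc⟩, inf_le_right,
    fun hle => hA (hle.trans inf_le_left), fun hsol => hS ?_⟩
  refine Group.isSolvable_of_ker_le_range
    (Subgroup.inclusion (inf_le_left : H ⊓ alternatingGroup Om ≤ H))
    ((sign : Perm Om →* ℤˣ).comp H.subtype) ?_
  intro x hx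
  have hx1 : sign (x : Perm Om) = 1 := hx
  exact ⟨⟨x, mem_inf.mpr ⟨x.2, Equiv.Perm.mem_alternatingGroup.mpr hx1⟩⟩, rfl⟩

/-- The classification on the standard set of eleven points. -/
theorem main (H : Subgroup (Perm Om)) (hcc : cc ∈ H) (hS : ¬ Group.IsSolvable H)
    (hA : ¬ alternatingGroup Om ≤ H) :
    (Nat.card H = 7920 ∧
      ∀ x : Fin 4 ↪ Om, ∃ g ∈ H, g (x 0) = 0 ∧ g (x 1) = 1 ∧ g (x 2) = 2 ∧ g (x 3) = 3) ∨
      Nonempty (H ≃* Matrix.ProjectiveSpecialLinearGroup (Fin 2) (ZMod 11)) := by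
  have hL := hyp_inf H hcc hS hA
  obtain ⟨d, hd, hg, -⟩ := main_L hL
  have hle := even_of_good H hL hd hg
  have hH : Hyp H := ⟨hcc, hle, hA, hS⟩
  obtain ⟨d', -, hg', hc⟩ := main_L hH
  rcases hc with hc | hc
  · right
    haveI := simple_L hH hg'
    exact Cfsg.Agent.Lib.Small.PSL2P11.nonempty_mulEquiv_zmod hc
  · left
    exact hc

end Cfsg.Agent.Lib.Deg11.Core
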